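import Cfsg.Agent.H97.QPSpec

/-! Quasithin tower, phase 2 (`blueprints/QP.md`): `jobCU`, the argument of `H48.NG.jobCU` under the
hypothesis `PH`. -/

set_option autoImplicit false

namespace H48.QP

open Cfsg Subgroup H98 H97 H97.NG H48.NG
open H97.QP (PH)
open scoped commutatorElement

universe u

variable {G : Type*} [Group G] [Finite G] {S H M : Subgroup G}

omit [Finite G] in
theorem charP_of_syl (h : PH S) (_ : IsSyl 2 S ⊤) (hH : S ≤ H) (hO : pCoreOf 2 H ≠ ⊥) :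
    CharP 2 H := h.chr H hH hO

theorem oZ_ne_bot' (h : PH S) (hS : IsSyl 2 S ⊤) : oZ 2 S ≠ ⊥ :=
  oZ_ne_bot hS.isPGroup h.ne

theorem act_ZH (h : PH S) (hS : IsSyl 2 S ⊤) (hH : S ≤ H) (hO : pCoreOf 2 H ≠ ⊥) :
    Act H (ZH S H) :=
  (act_ncl (h.sol H hH hO) (charP_of_syl h hS hH hO) (hS.of_le hH le_top) le_rfl).1

omit [Finite G] in
theorem ZH_le_oZ (h : PH S) (hS : IsSyl 2 S ⊤) (hH : S ≤ H) (hO : pCoreOf 2 H ≠ ⊥) :
    ZH S H ≤ oZ 2 (pCoreOf 2 H) :=
  ncl_le_oZ (charP_of_syl h hS hH hO) (hS.of_le hH le_top) le_rfl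

omit [Finite G] in
theorem ZH_le_S (h : PH S) (hS : IsSyl 2 S ⊤) (hH : S ≤ H) (hO : pCoreOf 2 H ≠ ⊥) : ZH S H ≤ S :=
  (ZH_le_oZ h hS hH hO).trans ((oZ_le _).trans (hS.of_le hH le_top).pCoreOf_le)

theorem Qs_ne_bot (h : PH S) (hS : IsSyl 2 S ⊤) : Qs S ≠ ⊥ := fun e =>
  oZ_ne_bot' h hS (eq_bot_iff.2 (e ▸ oZ_le_Qs S))

theorem cent_Qs_le (h : PH S) (hS : IsSyl 2 S ⊤) : centralizer (Qs S : Set G) ≤ Qs S :=
  (charP_of_syl h hS (le_Cs S) (Qs_ne_bot h hS)).le_pCoreOf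
    (H98.centralizer_anti (oZ_le_Qs S)) le_rfl

theorem le_Qs_of_comm (h : PH S) (hS : IsSyl 2 S ⊤) {D : Subgroup G} (hD : IsPGroup 2 D)
    (hn : D ≤ normalizer (Qs S : Set G)) (hc : ⁅FQ (Cs S), D⁆ ≤ Qs S) : D ≤ Qs S := by
  obtain ⟨g, hg, h1⟩ := (hS.of_le ((le_Cs S).trans (Cs_le_normalizer S)) le_top).exists_cj_le hD hn
  have := le_pCoreOf_of_comm (h.sol _ (le_Cs S) (Qs_ne_bot h hS)) (isPGroup_cj g hD)
    (h1.trans (le_Cs S)) (by
      rw [← cj_eq_self (normalizer_Qs_le hS hg), ← cj_commutator]; exact cj_le_of_le hc hg)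
  rwa [cj_le_iff, cj_eq_self (inv_mem hg)] at this

/-- Blueprint W2: a 2-group normalized by `F` lies in `Q`. -/
theorem le_Qs_of_normalized (h : PH S) (hS : IsSyl 2 S ⊤) {D : Subgroup G} (hD : IsPGroup 2 D)
    (hn : FQ (Cs S) ≤ normalizer (D : Set G)) : D ≤ Qs S := by
  have hQF : Qs S ≤ FQ (Cs S) := pCoreOf_le_FQ _
  have hP : IsPGroup 2 ↥(Qs S ⊔ D) :=
    IsPGroup.to_sup_of_normal_right' (isPGroup_pCoreOf _) hD (hQF.trans hn)
  have hFQ : FQ (Cs S) ≤ normalizer (Qs S : Set G) := (FQ_le _).trans (Cs_le_normalizer S)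
  by_contra hc
  have hlt : Qs S < Qs S ⊔ D := left_lt_sup.2 hc
  refine (lt_inf_normalizer hP hlt).not_ge (le_Qs_of_comm h hS hP.to_inf_left inf_le_right ?_)
  have h1 : FQ (Cs S) ≤ normalizer (((Qs S ⊔ D) ⊓ normalizer (Qs S : Set G) : Subgroup G) : Set G) :=
    le_normalizer_inf (le_normalizer_sup hFQ hn) (le_normalizer_normalizer hFQ)
  exact le_pCoreOf_of_le_FQ (hP.to_inf_left.to_le (commutator_le_right' h1))
    (commutator_le_left' (inf_le_right.trans (normalizer_Qs_le hS)))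

/-- Blueprint W1: `Q` is weakly closed in `S`. -/
theorem wc_Qs (h : PH S) (hS : IsSyl 2 S ⊤) : WC 2 (Qs S) ⊤ := by
  refine wc_of_isSyl hS (Qs_le hS) fun g _ hg => ?_
  have h1 : oZ 2 S ≤ centralizer (cj g (Qs S) : Set G) :=
    (oZ_le_centralizer S).trans (H98.centralizer_anti hg)
  have h2 : oZ 2 S ≤ cj g (oZ 2 (Qs S)) := by
    rw [cj_oZ]
    refine le_oz (ea_oZ S) (h1.trans ?_) h1
    rw [← cj_centralizer]; exact cj_mono g (cent_Qs_le h hS)
  have h3 : cj g (FQ (Cs S)) ≤ normalizer (Qs S : Set G) := by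
    refine le_trans ?_ ((H98.centralizer_anti h2).trans (Cs_le_normalizer S))
    rw [← cj_centralizer]; exact cj_mono g (FQ_le_cent hS)
  have h4 : cj g⁻¹ (Qs S) ≤ Qs S := le_Qs_of_normalized h hS (isPGroup_cj _ (isPGroup_pCoreOf _))
    (by rw [← cj_normalizer, ← cj_le_iff]; exact h3)
  exact cj_eq_self (by simpa using inv_mem (mem_normalizer_of_cj_le h4))

/-- `H = H° N_H(Q)` with `H° = ⟨Q^H⟩`. -/
theorem exists_mul_Qs (h : PH S) (hS : IsSyl 2 S ⊤) (hH : S ≤ H) {g : G} (hg : g ∈ H) :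
    ∃ n ∈ ncl H (Qs S), ∃ a ∈ H ⊓ normalizer (Qs S : Set G), g = n * a :=
  wc_frattini ((wc_Qs h hS).of_le ((Qs_le hS).trans hH) le_top) (le_ncl _ _)
    (ncl_le_of_le ((Qs_le hS).trans hH)) hg (le_normalizer_ncl _ _ hg)

theorem not_res_EW_le_Cs (h : PH S) (hS : IsSyl 2 S ⊤) (hH : S ≤ H) (hO : pCoreOf 2 H ≠ ⊥)
    {W : Subgroup G} (hW : Cmp H (ZH S H) W) : ¬ res 2 (EW H (ZH S H) W) ≤ Cs S := by
  intro hc
  have a := act_ZH h hS hH hO
  obtain ⟨u, hu, h1, h2⟩ := exists_fix a hW hS.isPGroup (hH.trans le_normalizer) (hH.trans a.le)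
  have hV : u ∈ ZH S H := ncl_le (cmp_le a hW) (hH.trans a.le) hu
  exact h2 (mem_Wc_of_res a hW hV
    (le_centralizer_iff.1 hc (mem_oZ_of_fix a.ea (ZH_le_S h hS hH hO) hV h1)))

theorem res_TT_inf_Cs (h : PH S) (hS : IsSyl 2 S ⊤) (hH : S ≤ H) (hO : pCoreOf 2 H ≠ ⊥) :
    res 2 (TT H (ZH S H) (OJ H (ZH S H) (jt 2 S)) ⊓ Cs S) ≤ centralizer (ZH S H : Set G) := by
  have a := act_ZH h hS hH hO
  have hV := ZH_le_S h hS hH hO
  by_contra hc
  obtain ⟨W, hW, h1, -⟩ := find a cmps_OJ inf_le_left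
    (le_inf cent_le_TT (inf_le_right.trans (cent_ZH_le S H)))
    (fun W hW => jt_inf_EW a hH hV (le_inf (jt_le_TT a hH hV) ((jt_le S).trans (le_Cs S))) hW)
    le_rfl hc
  exact not_res_EW_le_Cs h hS hH hO hW.1 (h1.trans inf_le_right)

/-- Claim A. -/
theorem F3_le_cent (h : PH S) (hS : IsSyl 2 S ⊤) (hH : Cs S ≤ H) (hO : pCoreOf 2 H ≠ ⊥) :
    F3 S ≤ H ⊓ centralizer (ZH S H : Set G) := by
  have hSH := (le_Cs S).trans hH
  have a := act_ZH h hS hSH hO
  have hV := ZH_le_S h hS hSH hO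
  have hn := le_normalizer_TT_OJ a (hS.of_le hSH le_top) hV
  refine le_inf ((F3_le S).trans ((FQ_le _).trans hH))
    ((res_mono (le_inf ?_ ((comm_le_FQ S).trans (FQ_le _)))).trans (res_TT_inf_Cs h hS hSH hO))
  exact (commutator_mono le_rfl (ncl_le (bm_le_TT a hS.isPGroup hSH hV) (hH.trans hn))).trans
    (commutator_le_right' ((FQ_le _).trans (hH.trans hn)))

theorem ncl_le_normalizer_F3 (h : PH S) (hS : IsSyl 2 S ⊤) (hH : Cs S ≤ H)
    (hO : pCoreOf 2 H ≠ ⊥) : ncl H (Qs S) ≤ normalizer (F3 S : Set G) :=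
  ncl_Qs_le_normalizer hS ((le_Cs S).trans hH) (res_F3 S) (F3_le_cent h hS hH hO)
    ((hS.of_le ((le_Cs S).trans hH) le_top).pCoreOf_le.trans
      ((le_Cs S).trans (Cs_le_normalizer_F3 S)))

theorem ncl_le_normalizer_F3' (h : PH S) (hS : IsSyl 2 S ⊤) {z : G} (hz : z ∈ oZ 2 S) (z1 : z ≠ 1)
    (hH : H ≤ centralizer ({z} : Set G)) : ncl H (Qs S) ≤ normalizer (F3 S : Set G) :=
  (ncl_mono hH le_rfl).trans (ncl_le_normalizer_F3 h hS (Cs_le_cent hz)
    (core_cent_ne_bot (ea_sq (ea_oZ S) hz) z1))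

theorem le_normalizer_F2_of_ncl (h : PH S) (hS : IsSyl 2 S ⊤) (hH : S ≤ H)
    (hn : ncl H (Qs S) ≤ normalizer (F2 S : Set G)) : H ≤ normalizer (F2 S : Set G) := by
  intro g hg
  obtain ⟨n, h1, a, h2, rfl⟩ := exists_mul_Qs h hS hH hg
  exact mul_mem (hn h1) (le_normalizer_F2 S h2.2)

theorem le_normalizer_F2_of_le (h : PH S) (hS : IsSyl 2 S ⊤) (hH : S ≤ H)
    (hF : F2 S ≤ H ⊓ centralizer (ZH S H : Set G)) : H ≤ normalizer (F2 S : Set G) :=
  le_normalizer_F2_of_ncl h hS hH (ncl_Qs_le_normalizer hS hH (res_F2 S) hF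
    ((hS.of_le hH le_top).pCoreOf_le.trans
      ((le_Cs S).trans ((Cs_le_normalizer S).trans (le_normalizer_F2 S)))))

theorem F3_ne_bot (h : PH S) (hS : IsSyl 2 S ⊤) (hB : ¬ bm 2 S ≤ Qs S) : F3 S ≠ ⊥ := fun e =>
  hB (le_pCoreOf_of_comm (h.sol _ (le_Cs S) (Qs_ne_bot h hS)) (hS.isPGroup.to_le (bm_le S))
    ((bm_le S).trans (le_Cs S)) ((commutator_mono le_rfl (le_ncl _ _)).trans
      (le_pCoreOf_of_le_FQ (res_eq_bot_iff.1 e) (comm_le_FQ S))))

theorem core_F2_ne_bot (h : PH S) (hS : IsSyl 2 S ⊤) (hB : ¬ bm 2 S ≤ Qs S) :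
    pCoreOf 2 (F2 S) ≠ ⊥ :=
  ((h.chr _ ((le_Cs S).trans (Cs_le_normalizer S))
    (core_ne_bot_of (isPGroup_pCoreOf _) (Qs_ne_bot h hS) le_normalizer le_rfl)).normal
    ((F2_le hS).trans ((FQ_le _).trans (Cs_le_normalizer S))) (le_normalizer_F2 S)).pCoreOf_ne_bot
    fun e => F3_ne_bot h hS hB (ncl_eq_bot_iff.1 e)

theorem max_F2 (h : PH S) (hS : IsSyl 2 S ⊤) (hB : ¬ bm 2 S ≤ Qs S) :
    IsMaximalTwoLocal (normalizer (F2 S : Set G)) := by
  obtain ⟨L, hL, h1⟩ := H12.exists_max_local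
    (H12.isTwoLocal_normalizer (isPGroup_pCoreOf (F2 S)) (core_F2_ne_bot h hS hB))
  have h2 := (normalizer_le_normalizer_pCoreOf (p := 2) (F2 S)).trans h1
  have h3 := (le_normalizer_F2 S).trans h2
  have h4 := (Cs_le_normalizer S).trans h3
  have h5 := le_normalizer_F2_of_le h hS ((le_Cs S).trans h4)
    (ncl_le (F3_le_cent h hS h4 (H12.core_ne_bot_of_local hL.1)) (h3.trans (le_normalizer_inf
      le_normalizer (le_normalizer_centralizer (le_normalizer_ncl _ _)))))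
  rwa [le_antisymm h2 h5]

namespace MD

omit [Finite G] in
theorem le (d : H97.QP.MD S M) : S ≤ M := (le_normalizer_bm le_normalizer).trans d.nB

omit [Finite G] in
theorem core (d : H97.QP.MD S M) : pCoreOf 2 M ≠ ⊥ := H12.core_ne_bot_of_local d.max.1

theorem act (d : H97.QP.MD S M) : Act M (ZH S M) := act_ZH d.ph d.ph.syl (le d) (core d)

omit [Finite G] in
theorem Y_le (d : H97.QP.MD S M) : ZH S M ≤ S := ZH_le_S d.ph d.ph.syl (le d) (core d)

omit [Finite G] in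
theorem syl (d : H97.QP.MD S M) : IsSyl 2 S M := d.ph.syl.of_le (le d) le_top

theorem normalizer_Y (d : H97.QP.MD S M) : normalizer (ZH S M : Set G) ≤ M :=
  H12.normalizer_le_of_max d.max (le_normalizer_ncl _ _) (by
    rw [pCoreOf_eq_self (H12.ea_isPGroup (act d).ea)]
    exact fun e => oZ_ne_bot' d.ph d.ph.syl (ncl_eq_bot_iff.1 e))

omit [Finite G] in
/-- `⟨X^H⟩ = ⟨X^{H ∩ M}⟩` for `X` normalized by `C`. -/
theorem ncl_le (d : H97.QP.MD S M) (hH : S ≤ H) (hO : pCoreOf 2 H ≠ ⊥) {X : Subgroup G}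
    (hX : Cs S ≤ normalizer (X : Set G)) : ncl H X ≤ ncl (H ⊓ M) X := by
  rw [← ncl_sup_centralizer (L := H ⊓ M) (C := H ⊓ centralizer (ZH S H : Set G))
    (inf_le_right.trans ((cent_ZH_le S H).trans hX)) (Or.inl (inf_le_left.trans
      (le_normalizer_inf le_normalizer (le_normalizer_centralizer (le_normalizer_ncl _ _))))),
    sup_comm]
  exact ncl_mono (d.fac H hH hO) le_rfl

omit [Finite G] in
theorem ZH_le (d : H97.QP.MD S M) (hH : S ≤ H) (hO : pCoreOf 2 H ≠ ⊥) : ZH S H ≤ ZH S M :=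
  (ncl_le d hH hO (centralizer_le_normalizer _)).trans (ncl_mono inf_le_right le_rfl)

theorem exists_cmp_cent (d : H97.QP.MD S M)
    (hB : ¬ bm 2 S ≤ centralizer (ZH S (normalizer (Qs S : Set G)) : Set G)) :
    ∃ W ∈ OJ M (ZH S M) (jt 2 S), W ≤ centralizer (Qs S : Set G) := by
  set M0 := normalizer (Qs S : Set G) with hM0
  have hS0 : S ≤ M0 := (le_Cs S).trans (Cs_le_normalizer S)
  have hQ : Qs S ≤ pCoreOf 2 M0 := le_pCoreOf (isPGroup_pCoreOf _) le_normalizer le_rfl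
  have hO : pCoreOf 2 M0 ≠ ⊥ := fun e => Qs_ne_bot d.ph d.ph.syl (eq_bot_iff.2 (e ▸ hQ))
  have a := act d
  have a0 := act_ZH d.ph d.ph.syl hS0 hO
  set X := TT M (ZH S M) (OJ M (ZH S M) (jt 2 S)) ⊓ M0 with hX
  have hBX : bm 2 S ≤ X := le_inf (bm_le_TT a d.ph.syl.isPGroup (le d) (Y_le d)) ((bm_le S).trans hS0)
  have hn0 : M0 ≤ normalizer ((M0 ⊓ centralizer (ZH S M0 : Set G) : Subgroup G) : Set G) :=
    le_normalizer_inf le_normalizer (le_normalizer_centralizer (le_normalizer_ncl _ _))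
  obtain ⟨W, hW, h1, h2⟩ := find a cmps_OJ (X := X) inf_le_left
    (le_inf cent_le_TT (inf_le_right.trans ((cent_ZH_le S M).trans (Cs_le_normalizer S))))
    (fun W hW => jt_inf_EW a (le d) (Y_le d) ((jt_le_bm S).trans hBX) hW) (ZH_le d hS0 hO)
    (fun hr => hB ((hBX.trans le_sup_left).trans (a0.red (X ⊔ (M0 ⊓ centralizer (ZH S M0 : Set G)))
      (sup_le inf_le_right inf_le_left) ((d.fac M0 hS0 hO).trans (sup_le
        (le_normalizer_of_le le_sup_right) (le_normalizer_sup (le_normalizer_inf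
          (inf_le_right.trans (le_normalizer_TT_OJ a (syl d) (Y_le d)))
          (inf_le_left.trans le_normalizer)) (inf_le_left.trans hn0))))
      ((res_mono (sup_le_sup_left inf_le_right _)).trans (res_sup_le_of_res_le
        (inf_le_right.trans (le_normalizer_centralizer a0.le)) hr)))))
  refine ⟨W, hW, (le_of_not_le_Wc a hW.1 (ZH_le d hS0 hO) (h1.trans (inf_le_right.trans a0.le))
    h2).trans ((ZH_le_oZ d.ph d.ph.syl hS0 hO).trans ?_)⟩
  exact (oZ_le_centralizer _).trans (H98.centralizer_anti hQ)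

theorem ncl_le_normalizer (d : H97.QP.MD S M) {W₀ : Subgroup G} (hW₀ : W₀ ∈ OJ M (ZH S M) (jt 2 S))
    (hc : W₀ ≤ centralizer (Qs S : Set G)) : ncl M (Qs S) ≤ normalizer (F3 S : Set G) := by
  have a := act d
  have hQM : Qs S ≤ M := (Qs_le d.ph.syl).trans (le d)
  have hSN := (le_Cs S).trans (Cs_le_normalizer_F3 S)
  have hCN : M ⊓ centralizer (ZH S M : Set G) ≤ normalizer (F3 S : Set G) :=
    inf_le_right.trans ((cent_ZH_le S M).trans (Cs_le_normalizer_F3 S))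
  -- components moved by `Q`
  have sa : ∀ W ∈ OJ M (ZH S M) (jt 2 S), ¬ Qs S ≤ centralizer (W : Set G) →
      EW M (ZH S M) W ≤ normalizer (F3 S : Set G) := by
    intro W hW hm
    obtain ⟨u, hu, h1, h2⟩ := exists_fix a hW₀.1 d.ph.syl.isPGroup ((le d).trans le_normalizer)
      ((le d).trans a.le)
    have hu' : u ∈ Wc M (ZH S M) W := (H98.ncl_le_iff.2 fun s hs => le_Wc_of_ne a
      (cmp_cj hW₀.1 (le_normalizer (le d hs)) (a.le (le d hs))) hW.1 (by
        rintro rfl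
        refine hm (le_centralizer_iff.1 (cj_le_of_le hc ?_))
        exact normalizer_le_normalizer_centralizer _ (Cs_le_normalizer S (le_Cs S hs))) :
        ncl S W₀ ≤ _) hu
    obtain ⟨t, ht, hE, -, z, -, hz⟩ := exists_tz_jt a (le d) (Y_le d) hW
    refine EW_le_of_ncl a hW.1 hQM hCN hz hE (hSN (jt_le S ht)) (ncl_le_normalizer_F3' d.ph d.ph.syl
      (mem_oZ_of_fix a.ea (Y_le d) hu'.1 h1) (fun e => h2 (e ▸ one_mem _)) ?_) hm
    exact fun e he => mem_c1.2 (comm_eq_one_symm (comm_Wc hu' he))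
  set NB := M ⊓ normalizer (bm 2 S : Set G) with hNB
  have hSB : S ≤ NB := le_inf (le d) (le_normalizer_bm le_normalizer)
  set L := ncl NB (Qs S) with hL
  have hLB : L ≤ NB := ncl_le_of_le ((Qs_le d.ph.syl).trans hSB)
  have hLM : L ≤ M := hLB.trans inf_le_left
  have sb : L ≤ normalizer (F3 S : Set G) := by
    obtain ⟨u, hu, h1, h2⟩ := exists_diag a (cmps_OJ (J := jt 2 S)) (P := bm 2 S) (N := NB)
      (fun W hW c => hW.2 ((jt_le_bm S).trans (le_centralizer_iff.1 c)))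
      (fun W hW => inf_centralizer_ne_bot (H12.ea_isPGroup (cmp_four a hW.1).ea)
        (d.ph.syl.isPGroup.to_le (bm_le S)) (bm_le_normalizer a d.ph.syl.isPGroup (le d) (Y_le d) hW.1)
        (cmp_four a hW.1).ne_bot) inf_le_right (inf_le_left.trans le_normalizer)
      (inf_le_left.trans a.le) (fun g hg W hW => cj_mem_OJ a (syl d) (Y_le d) hg.1 hW)
    have hle : (⨆ W ∈ OJ M (ZH S M) (jt 2 S), W ⊓ centralizer (bm 2 S : Set G)) ≤ ZH S M :=
      iSup₂_le fun W hW => inf_le_left.trans (cmp_le a hW.1)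
    exact ncl_le_normalizer_F3' d.ph d.ph.syl (mem_oZ_of_fix a.ea (Y_le d) (hle hu)
      (H98.centralizer_anti hSB h1)) (fun e => h2 W₀ hW₀ (e ▸ one_mem _))
      (fun g hg => mem_centralizer_singleton_iff.2 (h1 g hg))
  have sc : ∀ W ∈ OJ M (ZH S M) (jt 2 S), ¬ L ≤ centralizer (W : Set G) →
      EW M (ZH S M) W ≤ normalizer (F3 S : Set G) := by
    intro W hW hm
    rw [hL, H98.ncl_le_iff] at hm
    push Not at hm
    obtain ⟨g, hg, hm⟩ := hm
    obtain ⟨l, hl, e⟩ := ((wc_Qs d.ph d.ph.syl).of_le ((Qs_le d.ph.syl).trans hSB) le_top).exists_cj_eq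
      (le_ncl _ _) hLB hg (cj_le_ncl hg)
    rw [e, cj_le_iff, cj_centralizer] at hm
    have := sa _ (cj_mem_OJ a (syl d) (Y_le d) (inv_mem (hLM hl)) hW) hm
    rwa [← cj_EW (le_normalizer (inv_mem (hLM hl))) (a.le (inv_mem (hLM hl))), cj_le_iff, inv_inv,
      cj_eq_self_of_mem (sb hl)] at this
  set O := {W | W ∈ OJ M (ZH S M) (jt 2 S) ∧ ¬ L ≤ centralizer (W : Set G)} with hO
  refine (H98.ncl_le ((le_ncl NB _).trans le_sup_right) (N := TT M (ZH S M) O ⊔ L)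
    fun g hg => ?_).trans (sup_le (TT_le_iff.2 ⟨fun W hW => sc W hW.1 hW.2, hCN⟩) sb)
  obtain ⟨n, hn, b, hb, rfl⟩ := exists_mul_bm a (syl d) (Y_le d) hg
  refine mul_mem ((TT_le_iff.2 ⟨fun W hW => ?_, le_normalizer_of_le
    (cent_le_TT.trans le_sup_left)⟩ : _ ≤ normalizer _) hn) ?_
  · by_cases hm : L ≤ centralizer (W : Set G)
    · refine le_normalizer_of_commutator_le (commutator_sup_left_le
        (le_normalizer_of_le le_sup_left) (le_normalizer_of_le le_sup_right) ?_ ?_) le_rfl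
      · refine (commutator_le_left' fun e he => mem_normalizer_TT (le_normalizer (EW_le he))
          (a.le (EW_le he)) fun W' hW' => ?_).trans le_sup_left
        rwa [cj_eq_self (EW_le_normalizer_cmp a hW.1 hW'.1.1 he)]
      · have h1 : ⁅L, EW M (ZH S M) W⁆ ≤ EW M (ZH S M) W := commutator_le_right' fun l hl =>
          mem_normalizer_EW (le_normalizer (hLM hl)) (a.le (hLM hl))
            (centralizer_le_normalizer _ (hm hl))
        have h2 : ⁅L, EW M (ZH S M) W⁆ ≤ centralizer (W : Set G) :=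
          (commutator_mono hm le_rfl).trans
            (commutator_le_left' (le_normalizer_centralizer EW_le_normalizer))
        exact fun x hx => mem_sup_left
          (cent_le_TT ⟨EW_le (h1 hx), mem_cent_of_EW a hW.1 (h1 hx) (h2 hx)⟩)
    · exact le_normalizer_of_le ((EW_le_TT (O := O) ⟨hW, hm⟩).trans le_sup_left)
  · have hbL : b ∈ normalizer (L : Set G) := le_normalizer_ncl NB (Qs S) hb
    have hb1 : b ∈ normalizer (TT M (ZH S M) O : Set G) := by
      refine mem_normalizer_TT (le_normalizer hb.1) (a.le hb.1)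
        fun W hW => ⟨cj_mem_OJ a (syl d) (Y_le d) hb.1 hW.1, fun c => hW.2 ?_⟩
      rwa [← cj_centralizer, ← cj_eq_self hbL, cj_le_cj_iff] at c
    exact le_normalizer_sup (zpowers_le.2 hb1) (zpowers_le.2 hbL) (mem_zpowers b)

theorem le_normalizer_F2 (d : H97.QP.MD S M)
    (hB : ¬ bm 2 S ≤ centralizer (ZH S (normalizer (Qs S : Set G)) : Set G)) :
    M ≤ normalizer (F2 S : Set G) := by
  obtain ⟨W, hW, hc⟩ := exists_cmp_cent d hB
  have h1 := ncl_le_normalizer d hW hc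
  have hS0 : S ≤ normalizer (Qs S : Set G) := (le_Cs S).trans (Cs_le_normalizer S)
  have h2 := ncl_le d hS0 (core_ne_bot_of (isPGroup_pCoreOf _) (Qs_ne_bot d.ph d.ph.syl)
    le_normalizer le_rfl) (Cs_le_normalizer_F3 S)
  refine le_normalizer_F2_of_ncl d.ph d.ph.syl (le d) fun x hx => mem_normalizer_of_cj_le
    ((cj_mono x h2).trans (cj_le_iff.2 (H98.ncl_le_iff.2 fun m hm => cj_le_iff.1 ?_)))
  have e : x * m = m * (m⁻¹ * x * m) := by group
  rw [cj_cj, e, ← cj_cj, cj_eq_self (h1 (conj_mem_of_mem_normalizer'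
    (le_normalizer_ncl _ _ hm.2) hx))]
  exact cj_le_ncl hm.1

end MD

theorem jobCU : H97.QP.JobCU.{u} := by
  intro G _ _ S M d hC
  have hB : ¬ bm 2 S ≤ Qs S := fun hB => hC (le_trans (by
    have := le_normalizer_bm (p := 2) (Cs_le_normalizer S)
    rwa [bm_eq_of_le hB (Qs_le d.ph.syl)] at this) d.nB)
  have hCF := (Cs_le_normalizer S).trans (le_normalizer_F2 S)
  have hne : ¬ M ≤ normalizer (F2 S : Set G) := fun c =>
    hC (hCF.trans (H12.normalizer_le_of_max d.max c (core_F2_ne_bot d.ph d.ph.syl hB)))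
  have e : F2 S = F3 S := F2_eq d.ph.syl (by
    by_contra c; exact hne (MD.le_normalizer_F2 d c))
  exact ⟨normalizer (F2 S : Set G), max_F2 d.ph d.ph.syl hB, fun H hH hO =>
    le_normalizer_F2_of_le d.ph d.ph.syl ((le_Cs S).trans hH) (e ▸ F3_le_cent d.ph d.ph.syl hH hO)⟩

end H48.QP
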