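import Cfsg.Agent.H97.QPSpec

/-! Quasithin tower, phase 2 (`blueprints/QP.md`): `jobJM`. -/

set_option autoImplicit false

namespace H48.QP

open Cfsg Subgroup H98 H97 H97.NG H48.NG H97.QP

universe u

variable {G : Type*} [Group G] [Finite G] {S L P P' W W' : Subgroup G} {x x' z s : G}

theorem W_le_ZH (hs : Group.IsSolvable L) (hc : CharP 2 L) (hT : IsSyl 2 S L) (h : BC (BT S) W x)
    (hx : x ∈ L) : W ≤ ZH S L := by
  obtain ⟨a, hV⟩ := H32.NP.nf_act hs hc hT h h hx hx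
  have hW := (H32.NP.mem_OJ a hT hV h hx (le_sup_left.trans (le_ncl _ _))).1.1
  obtain ⟨u, hu, h1, h2⟩ := exists_fix a hW hT.isPGroup (hT.le.trans le_normalizer)
    (hT.le.trans a.le)
  have hu' := ncl_le (cmp_le a hW) (hT.le.trans a.le) hu
  exact (le_of_not_le_Wc a hW inf_le_left (((res_le _).trans EW_le).trans
    (le_normalizer_inf a.le (le_normalizer_ncl _ _)))
    fun c => h2 (c ⟨hu', le_ncl _ _ (mem_oZ_of_fix a.ea hV hu' h1)⟩)).trans inf_le_right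

theorem d8_of_ns (h : NS S P P' W W' ⊥ ⊥ x x' z s) (e : s * z = z * s) : D8 S := by
  have e1 := (h.px.fix h.px.mem).2 e
  have e2 := (h.px'.fix h.px.mem).2 e
  have e3 : ∀ t ∈ S, cj t W = W := fun t ht => (h.px.two t ht).elim id fun c => c.trans e1
  have e4 : S = W' ⊔ W := le_antisymm (fun t ht => by
    have := h.h.dec ⟨ht, mem_centralizer_singleton_iff.2 ((h.px.fix ht).1 (e3 t ht))⟩
    rwa [h.h.core, e1, e2, sup_idem, sup_idem, sup_bot_eq, sup_comm] at this)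
    (sup_le h.px'.W_le h.px.W_le)
  have c1 := H12.card_sup_mul_card_inf (A := W') (B := W)
    fun t ht => cj_eq_self_iff.1 (e3 t (h.px'.W_le ht))
  rw [← e4, h.px.bc.four.card, h.px'.bc.four.card, h.px.bc.four.card_eq_two inf_le_right
    (fun c => h.px.zc.ne (mem_bot.1 (c ▸ ⟨h.px'.zc.mem, h.px.zc.mem⟩)))
    fun c => h.nc ((inf_eq_right.1 c).trans (H12.ea_le_centralizer h.px'.bc.four.ea))] at c1
  exact ⟨by omega, W, W', h.px.bc.four, h.px'.bc.four, h.px.W_le, h.px'.W_le, h.nc⟩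

theorem jobJM : JobJM.{u} := by
  intro hR3 hPX hEx hNB hCom hNA hNK hNW G _ _ S hG
  have hS := hG.syl
  by_cases hp : ∃ P W x P' W' x', PC S P W x ∧ PC S P' W' x' ∧ pCoreOf 2 (P ⊔ P') = ⊥
  · obtain ⟨P, W, x, P', W', x', h, h', e⟩ := hp
    obtain ⟨z, s, p⟩ := hPX hR3 G S P W x hG h
    obtain ⟨z', s', p'⟩ := hPX hR3 G S P' W' x' hG h'
    have n := hNB G S P W x z s hG h p
    have n' := hNB G S P' W' x' z' s' hG h' p'
    obtain ⟨t, ht, hc⟩ : ∃ t ∈ S, ¬ cj t W ≤ centralizer (W' : Set G) := by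
      by_contra! c
      exact hCom G S P P' W W' x x' z z' s s' p p' e c
    obtain ⟨D, D', ns⟩ := hNA G S P P' _ W' _ x' _ z' _ s' (p.cj ht) p' e hc
    obtain rfl := hNK G S P P' _ W' D D' _ x' _ _ hG ns n n'
    obtain rfl := hNK G S P' P W' _ D' _ x' _ _ _ hG ns.symm n' n
    exact Or.inl (d8_of_ns ns (hNW G S P P' _ W' _ x' _ _ hG ns))
  push Not at hp
  have mem : ∀ {P W x}, PC S P W x → S ≤ P ∧ x ∈ P := fun h =>
    ⟨h.eq ▸ le_sup_left, h.eq ▸ mem_sup_right (mem_zpowers _)⟩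
  have pair : ∀ P W x P' W' x', PC S P W x → PC S P' W' x' → x ∈ normalizer (W' : Set G) := by
    intro P W x P' W' x' h h'
    by_cases hne : W = W'
    · exact hne ▸ h.bc.nx
    have c := hp P W x P' W' x' h h'
    have hL : S ≤ P ⊔ P' := (mem h).1.trans le_sup_left
    exact (H32.NP.nf (hG.sol _ hL c) (hG.chr _ hL c) (hS.of_le hL le_top) h.bc h'.bc
      (mem_sup_left (mem h).2) (mem_sup_right (mem h').2) hne).1
  obtain ⟨D, hD, hD1, h1, h2⟩ : ∃ D : Subgroup G, IsPGroup 2 D ∧ D ≠ ⊥ ∧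
      normalizer (BT S : Set G) ≤ normalizer (D : Set G) ∧
      ∀ P W x, PC S P W x → x ∈ normalizer (D : Set G) := by
    have hB : IsPGroup 2 (BT S) := hS.isPGroup.to_le (bm_le S)
    by_cases he : ∃ P W x, PC S P W x
    · obtain ⟨P₀, W₀, x₀, h₀⟩ := he
      refine ⟨⨆ W : {W : Subgroup G // ∃ P x, PC S P W x}, W.1,
        hB.to_le (iSup_le fun ⟨W, P, x, h⟩ => h.bc.le), fun e => h₀.bc.four.ne_bot (eq_bot_iff.2
          (e ▸ le_iSup (fun W : {W : Subgroup G // ∃ P x, PC S P W x} => W.1) ⟨W₀, P₀, x₀, h₀⟩)),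
        fun g hg => mem_normalizer_of_cj_le (cj_le_iff.2 (iSup_le fun ⟨W, P, x, h⟩ =>
          cj_le_iff.1 ?_)), fun P W x h => ?_⟩
      · obtain ⟨z, s, p⟩ := hPX hR3 G S P W x hG h
        have n := hNB G S P W x z s hG h p
        have hL : S ≤ P ⊔ normalizer (BT S : Set G) := (mem h).1.trans le_sup_left
        have hT := hS.of_le hL le_top
        have hx := mem_sup_left (T := normalizer (BT S : Set G)) (mem h).2
        obtain ⟨P', x', -, h'⟩ := hEx G S _ _ hG hL n (cj_mem_OJ (hG.act hL n) hT (hG.ZH_le hL n)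
          (mem_sup_right hg) (H32.NP.mem_OJ (hG.act hL n) hT (hG.ZH_le hL n) h.bc hx
            (W_le_ZH (hG.sol _ hL n) (hG.chr _ hL n) hT h.bc hx)).1)
        exact le_iSup (fun W : {W : Subgroup G // ∃ P x, PC S P W x} => W.1) ⟨_, P', x', h'⟩
      · exact le_normalizer_iSup (fun ⟨W', P', x', h'⟩ => zpowers_le.2 (pair P W x P' W' x' h h'))
          (mem_zpowers x)
    · exact ⟨BT S, hB, fun e => H12.JT_ne_bot hS.isPGroup hG.ne
        (eq_bot_iff.2 (e ▸ jt_le_bm S)), le_rfl, fun P W x h => (he ⟨P, W, x, h⟩).elim⟩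
  obtain ⟨M, hM, hle⟩ := H12.exists_max_local (H12.isTwoLocal_normalizer hD hD1)
  refine Or.inr ⟨M, hG, hM, h1.trans hle, fun H hH hO g hg => ?_⟩
  have a := hG.act hH hO
  have hV := hG.ZH_le hH hO
  have hN : H ⊓ normalizer (BT S : Set G) ≤ (H ⊓ centralizer (ZH S H : Set G)) ⊔ (H ⊓ M) :=
    le_sup_of_le_right (inf_le_inf_left _ (h1.trans hle))
  obtain ⟨n, hn, b, hb, rfl⟩ := exists_mul_bm a (hS.of_le hH le_top) hV hg
  refine mul_mem ((TT_le_iff.2 ⟨fun W hW => ?_, le_sup_left⟩ : _ ≤ _) hn) (hN hb)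
  obtain ⟨P, x, hP, h⟩ := hEx G S H W hG hH hO hW
  obtain ⟨t, ht, hE, -, z, hzW, hz⟩ := exists_tz_jt a hH hV hW
  exact EW_le_of_move a hW.1 le_sup_left hz hE
    (hN ⟨hH (jt_le S ht), le_normalizer (jt_le_bm S ht)⟩)
    (mem_sup_right ⟨hP (mem h).2, hle (h2 P W x h)⟩) (hP (mem h).2) h.bc.nx
    fun c => H32.NP.x_move h.bc hzW hz.ne (mul_inv_eq_iff_eq_mul.1 c)

end H48.QP
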