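import Cfsg.Agent.H96.MP3

/-! The structure step of the qrc-lemma (S1824), in module language. -/

set_option autoImplicit false

namespace H48.QR

open Subgroup H98 H96

universe u

/-- In a minimal parabolic group with an offender, a Sylow subgroup of `K = O²(Γ)` lies in
`[M ∩ K, J]`, `J` the join of the minimal offenders in `T`. -/
def JobV : Prop := ∀ {Γ W : Type u} [Group Γ] [AddCommGroup W] [DistribMulAction Γ W] [Finite Γ]
  [Finite W] [FaithfulSMul Γ W] {T M B : Subgroup Γ}, MP 2 W T M → Off 2 W B → B ≠ ⊥ →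
    T ⊓ res 2 ⊤ ≤ ⁅M ⊓ res 2 ⊤, om 2 W T⁆

end H48.QR
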