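import Cfsg.Agent.H48.QRSpec
import Mathlib.GroupTheory.SpecificGroups.Alternating.Simple

/-! The symmetric case of the structure step of the qrc-lemma. -/

set_option autoImplicit false

namespace H48.QR

open Subgroup Cfsg H98 H96 Equiv
open scoped commutatorElement

theorem s4a : ∀ a : Perm (Fin 4), a ≠ 1 → ∃ τ : Perm (Fin 4), Perm.sign τ = 1 ∧
    τ * a * τ⁻¹ * a⁻¹ ≠ 1 ∧ (τ * a * τ⁻¹ * a⁻¹) * (τ * a * τ⁻¹ * a⁻¹) = 1 := by decide +kernel

theorem s4b : ∀ σ : Perm (Fin 4), Perm.sign σ = 1 → σ * σ = 1 ∨ σ ^ 3 = 1 := by decide +kernel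

theorem s4c : ∀ c σ : Perm (Fin 4), Perm.sign c = 1 → c ≠ 1 → c * c = 1 → Perm.sign σ = 1 →
    σ * σ = 1 → σ = 1 ∨ ∃ g, g * c * g⁻¹ = σ := by decide +kernel

theorem s2a : ∀ σ : Perm (Fin 2), Perm.sign σ = 1 → σ = 1 := by decide +kernel

theorem exists_even_not_comm {α : Type*} [Fintype α] [DecidableEq α] (h : 4 ≤ Fintype.card α)
    {a : Perm α} (ha : a ≠ 1) : ∃ τ : Perm α, Perm.sign τ = 1 ∧ ⁅τ, a⁆ ≠ 1 := by
  obtain ⟨x, hx⟩ : ∃ x, a x ≠ x := by
    by_contra! e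
    exact ha (Perm.ext e)
  have h2 : 1 < ({x, a x}ᶜ : Finset α).card := by
    rw [Finset.card_compl]
    have := Finset.card_le_two (a := x) (b := a x)
    omega
  obtain ⟨y, hy, z, hz, hyz⟩ := Finset.one_lt_card.1 h2
  simp only [Finset.mem_compl, Finset.mem_insert, Finset.mem_singleton, not_or] at hy hz
  refine ⟨swap (a x) y * swap (a x) z, by
    rw [Perm.sign_mul, Perm.sign_swap (Ne.symm hy.2), Perm.sign_swap (Ne.symm hz.2)]; decide,
    fun e => ?_⟩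
  have := congrArg (fun f : Perm α => f x) (commutatorElement_eq_one_iff_mul_comm.1 e)
  simp only [Perm.mul_apply, swap_apply_left] at this
  rw [swap_apply_of_ne_of_ne hz.2 (Ne.symm hyz), swap_apply_of_ne_of_ne hx.symm (Ne.symm hz.1),
    swap_apply_of_ne_of_ne hx.symm (Ne.symm hy.1)] at this
  exact hz.2 this

theorem alt2 {n : ℕ} (hn : 1 ≤ n) {N : Subgroup (Perm (Fin (2 ^ n)))} (hN : N.Normal)
    {a : Perm (Fin (2 ^ n))} (ha : a ≠ 1) 
    (h : ∀ τ : Perm (Fin (2 ^ n)), Perm.sign τ = 1 → ⁅τ, a⁆ ∈ N)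
    {σ : Perm (Fin (2 ^ n))} (h1 : Perm.sign σ = 1) {k : ℕ} (h2 : σ ^ 2 ^ k = 1) : σ ∈ N := by
  obtain rfl | rfl | h3 : n = 1 ∨ n = 2 ∨ 3 ≤ n := by omega
  · exact s2a σ h1 ▸ one_mem N
  · obtain ⟨τ, e1, e2, e3⟩ := s4a a ha
    have e4 : σ * σ = 1 := (s4b σ h1).elim id fun e => by
      have : orderOf σ = 1 := Nat.eq_one_of_dvd_coprimes
        (Nat.Coprime.pow_right k (by norm_num)) (orderOf_dvd_of_pow_eq_one e) (orderOf_dvd_of_pow_eq_one h2)
      rw [orderOf_eq_one_iff.1 this, mul_one]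
    rcases s4c _ σ (by simp [e1]) e2 e3 h1 e4 with e | ⟨g, e⟩
    · exact e ▸ one_mem N
    · exact e ▸ hN.conj_mem _ (h τ e1) g
  · have h4 : 8 ≤ 2 ^ n := Nat.pow_le_pow_right (n := 2) (by norm_num) h3
    obtain ⟨τ, e1, e2⟩ := exists_even_not_comm (by rw [Fintype.card_fin]; omega) ha
    exact Perm.alternatingGroup_le_of_normal (by rw [Nat.card_fin]; omega)
      ((nontrivial_iff_exists_ne_one N).2 ⟨_, h τ e1, e2⟩) (Perm.mem_alternatingGroup.2 h1)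

theorem mem_range_ext {m : ℕ} (o : Fin (m + 1)) {g : Perm (Fin (m + 1))} (hg : g o = o) :
    ∃ τ, Perm.extendDomainHom (finSuccAboveEquiv o) τ = g := by
  have h : ∀ x, g x ≠ o ↔ x ≠ o := fun x => by
    rw [ne_eq, ne_eq, not_iff_not]
    exact ⟨fun e => g.injective (e.trans hg.symm), fun e => e ▸ hg⟩
  refine ⟨(finSuccAboveEquiv o).symm.permCongr (g.subtypePerm h), Perm.ext fun x => ?_⟩
  by_cases hx : x = o
  · rw [hx, hg]
    exact Perm.extendDomain_apply_not_subtype _ _ (by simp)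
  · exact (Perm.extendDomain_apply_subtype (p := fun x => x ≠ o) _ _ hx).trans (by simp)

variable {Γ W : Type*} [Group Γ] [AddCommGroup W] [DistribMulAction Γ W] [Finite Γ] [Finite W]
  {T M B E : Subgroup Γ} {𝓔 : Set (Subgroup Γ)}

omit [Finite W] in
theorem syl_comp (h : MP 2 W T M) (c : Comp 2 W T 𝓔) (hE : E ∈ 𝓔) : IsSyl 2 (T ⊓ E) E := by
  have h1 : sSup 𝓔 ≤ normalizer (E : Set Γ) := sSup_le fun E' hE' => by
    by_cases e : E' = E
    · exact e ▸ le_normalizer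
    · exact (c.comm E' hE' E hE e).1.trans (centralizer_le_normalizer _)
  have := c.normal
  exact h.syl.inf_subN ((SubN.of_normal (le_sSup hE) h1).trans
    (SubN.of_normal le_top (le_normalizer_of_normal)))

omit [Finite Γ] in
theorem nr_om : T ≤ normalizer (om 2 W T : Set Γ) :=
  le_normalizer_sSup fun _ hA t ht => ⟨hA.1.cj t, cj_le_of_le_of_mem hA.2 ht⟩

theorem exists_om (h : MP 2 W T M) (c : Comp 2 W T 𝓔) (hB : Off 2 W B) (hne : B ≠ ⊥)
    (hE : E ∈ 𝓔) : ∃ a ∈ om 2 W T, a ∈ E ∧ a ≠ 1 := by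
  obtain ⟨A, -, hA⟩ := hB.exists_minOff hne
  obtain ⟨g, -, hg⟩ := h.syl.exists_cj_le (isPGroup_of_ea hA.ea) le_top
  obtain ⟨E', hE', e⟩ := c.mo _ hg (hA.cj g)
  obtain ⟨t, ht, rfl⟩ := c.trans E' hE' E hE
  have h2 := (hA.cj g).cj t
  obtain ⟨a, ha⟩ := (ne_bot_iff_exists_ne_one).1 ((hA.cj g).cj t).ne
  exact ⟨a, le_om ((hA.cj g).cj t) (cj_le_of_le_of_mem hg ht) a.2, cj_mono t e a.2,
    fun e => ha (Subtype.ext e)⟩

theorem pm_case (h : MP 2 W T M) (c : Comp 2 W T 𝓔) (hB : Off 2 W B) (hne : B ≠ ⊥) (hE : E ∈ 𝓔)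
    {n : ℕ} (hn : 1 ≤ n) (m : PModel (Fin (2 ^ n + 1)) W E) :
    T ⊓ res 2 E ≤ ⁅M ⊓ res 2 E, om 2 W T⁆ := by
  have hS := syl_comp h c hE
  have h2 : 2 ≤ 2 ^ n := Nat.le_self_pow (by omega) 2
  obtain ⟨o, ho⟩ := (((isPGroup_subgroupOf hS.isPGroup E).map m.ρ.toMonoidHom)).nonempty_fixed_point_of_prime_not_dvd_card
    (Fin (2 ^ n + 1)) (by
      rw [Nat.card_fin, Nat.dvd_add_right (dvd_pow_self 2 (by omega))]; norm_num)
  have ho' : ∀ s (hs : s ∈ T ⊓ E), m.ρ ⟨s, hs.2⟩ o = o := fun s hs =>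
    ho ⟨m.ρ ⟨s, hs.2⟩, ⟨s, hs.2⟩, hs, rfl⟩
  let e := finSuccAboveEquiv o
  let φ : Perm (Fin (2 ^ n)) →* Γ :=
    (E.subtype.comp m.ρ.symm.toMonoidHom).comp (Perm.extendDomainHom e)
  have inj : Function.Injective φ :=
    (E.subtype_injective.comp m.ρ.symm.injective).comp (Perm.extendDomainHom_injective e)
  have hφE : ∀ τ, φ τ ∈ E := fun τ => (m.ρ.symm _).2
  have hρ : ∀ τ, m.ρ ⟨φ τ, hφE τ⟩ = τ.extendDomain e := fun τ => m.ρ.apply_symm_apply _
  have hYE : φ.range ≤ E := by rintro _ ⟨τ, rfl⟩; exact hφE τ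
  have hSY : T ⊓ E ≤ φ.range := fun s hs => by
    obtain ⟨τ, hτ⟩ := mem_range_ext o (ho' s hs)
    exact ⟨τ, congrArg Subtype.val (m.ρ.symm_apply_eq.2 hτ : _ = (⟨s, hs.2⟩ : E))⟩
  have hY := hS.of_le hSY hYE
  -- a full cycle in `T`
  obtain ⟨z, hz, hz1, hz2⟩ : ∃ z : Perm (Fin (2 ^ n)), φ z ∈ T ∧ z.IsCycle ∧ ∀ i, z i ≠ i := by
    have e1 : finRotate (2 ^ n) ^ 2 ^ n = 1 := by
      have := (isCycle_finRotate_of_le h2).orderOf
      rw [support_finRotate_of_le h2, Finset.card_univ, Fintype.card_fin] at this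
      exact orderOf_dvd_iff_pow_eq_one.1 this.dvd
    obtain ⟨_, ⟨g, rfl⟩, hg⟩ := hY.exists_cj_le (Q := zpowers (φ (finRotate (2 ^ n))))
      (isPGroup_zpowers (k := n) (by rw [← map_pow, e1, map_one])) (zpowers_le.2 ⟨_, rfl⟩)
    rw [H98.cj_zpowers, zpowers_le, ← map_inv, ← map_mul, ← map_mul] at hg
    refine ⟨_, hg.1, (isCycle_finRotate_of_le h2).conj, fun i => Perm.mem_support.1 ?_⟩
    rw [Perm.support_conj, support_finRotate_of_le h2, Finset.map_univ_equiv]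
    exact Finset.mem_univ _
  have eq1 : ∀ τ v i, m.ψ (φ τ • v) (e i) = m.ψ v (e (τ⁻¹ i)) := fun τ v i => by
    rw [m.eqv ⟨φ τ, hφE τ⟩, hρ, Perm.extendDomain_inv, Perm.extendDomain_apply_image]
  have eq2 : ∀ τ v, m.ψ (φ τ • v) o = m.ψ v o := fun τ v => by
    rw [m.eqv ⟨φ τ, hφE τ⟩, hρ, Perm.extendDomain_inv,
      Perm.extendDomain_apply_not_subtype _ _ (by simp)]
  have key : ∀ v ∈ fx W T, ∀ τ, dl (φ τ) v ∈ fx W E := fun v hv τ => (m.ker _).1 (by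
    have c1 : ∀ i j, m.ψ v (e i) = m.ψ v (e j) := fun i j => by
      obtain ⟨k, hk⟩ := hz1.exists_zpow_eq (hz2 i) (hz2 j)
      have := eq1 (z ^ k) v j
      rw [hv _ (by rw [map_zpow]; exact zpow_mem hz k), Perm.inv_eq_iff_eq.2 hk.symm] at this
      exact this.symm
    rw [dl_apply, map_sub, sub_eq_zero]
    funext x
    by_cases hx : x = o
    · rw [hx, eq2]
    · obtain ⟨i, hi⟩ := e.surjective ⟨x, hx⟩
      have : x = e i := by rw [hi]
      rw [this, eq1, c1])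
  have hYM : φ.range ≤ M := by
    refine le_trans ?_ h.cZ
    rw [← hY.sup_res]
    refine sup_le (inf_le_left.trans le_ctr_fx) (res_le_of_forall fun y hy hc v hv => ?_)
    obtain ⟨τ, rfl⟩ := hy
    have e1 := dl_pow_sub (U := ⊥) (g := φ τ) (v := v) (nrm_bot (G := Γ) (V := W) ▸ mem_top _)
      (dl_of_fx (key v hv τ) (hφE τ)) (orderOf (φ τ))
    rw [pow_orderOf_eq_one, dl_one, zero_sub, neg_mem_iff, AddSubgroup.mem_bot] at e1
    obtain ⟨k, hk⟩ := (Nat.coprime_two_right.1 hc)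
    rw [hk, add_smul, one_smul, mul_comm, mul_smul, h.h0, smul_zero, zero_add] at e1
    exact dl_eq_zero.1 e1
  have ev1 : ∀ τ, φ τ ∈ res 2 E → Perm.sign τ = 1 := fun τ hτ => by
    have : res 2 E ≤ ((alternatingGroup _).comap m.ρ.toMonoidHom).map E.subtype :=
      res_le_of_forall fun x hx hc => ⟨⟨x, hx⟩, Perm.mem_alternatingGroup.2 (by
        obtain ⟨k, hk⟩ := (Nat.coprime_two_right.1 hc)
        have e1 : (⟨x, hx⟩ : E) ^ (2 * k + 1) = 1 := Subtype.ext (hk ▸ pow_orderOf_eq_one x)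
        have e2 := congrArg (fun y => Perm.sign (m.ρ y)) e1
        simp only [map_pow, map_one, pow_succ, pow_mul, map_mul, pow_zero, one_mul,
          Int.units_mul_self, one_pow] at e2
        exact e2), rfl⟩
    obtain ⟨y, hy, e1⟩ := this hτ
    have e2 : y = ⟨φ τ, hφE τ⟩ := Subtype.ext e1
    have e3 : Perm.sign (m.ρ y) = 1 := Perm.mem_alternatingGroup.1 hy
    rwa [e2, hρ, Perm.sign_extendDomain] at e3
  have ev2 : ∀ τ, Perm.sign τ = 1 → φ τ ∈ res 2 φ.range := fun τ hτ => by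
    have : alternatingGroup (Fin (2 ^ n)) ≤ (res 2 φ.range).comap φ := by
      rw [← Perm.closure_three_cycles_eq_alternating, closure_le]
      exact fun σ hσ => mem_res_of_coprime ⟨σ, rfl⟩ (by
        rw [orderOf_injective φ inj, Perm.IsThreeCycle.orderOf hσ]; norm_num)
    exact this (Perm.mem_alternatingGroup.2 hτ)
  have hr : res 2 φ.range ≤ M ⊓ res 2 E := le_inf ((res_le _).trans hYM) (res_mono hYE)
  have hnX : φ.range ≤ normalizer ((⁅M ⊓ res 2 E, om 2 W T⁆ : Subgroup Γ) : Set Γ) := by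
    rw [← hY.sup_res]
    exact sup_le (le_normalizer_commutator (le_normalizer_inf
      ((hSY.trans hYM).trans le_normalizer) (le_normalizer_res_of_le inf_le_right))
      (inf_le_left.trans nr_om)) (hr.trans (normalizer_commutator_ge_left _ _))
  have hN : ((⁅M ⊓ res 2 E, om 2 W T⁆ : Subgroup Γ).comap φ).Normal := ⟨fun x hx g => by
    rw [mem_comap, map_mul, map_mul, map_inv]
    exact (mem_normalizer_iff.1 (hnX ⟨g, rfl⟩) _).1 hx⟩
  obtain ⟨a, ha, haE, ha1⟩ := exists_om h c hB hne hE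
  obtain ⟨a, rfl⟩ := hSY ⟨om_le ha, haE⟩
  intro s hs
  obtain ⟨σ, rfl⟩ := hSY ⟨hs.1, res_le _ hs.2⟩
  obtain ⟨k, hk⟩ := isPGroup_iff_forall.1 h.syl.isPGroup _ hs.1
  refine alt2 hn hN (a := a) (fun e => ha1 (e ▸ map_one φ)) (fun τ hτ => ?_) (ev1 σ hs.2) (k := k)
    (inj (by rw [map_pow, hk, map_one]))
  rw [mem_comap, map_commutatorElement]
  exact commutator_mem_commutator (hr (ev2 τ hτ)) ha

end H48.QR
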